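import Cfsg.Agent.Lib.ChevGen2.Field
import Cfsg.Agent.Lib.Chev.RelB2
import Cfsg.Agent.Lib.Chev.RootB2
import Cfsg.Agent.Lib.Chev.RelG2
import Cfsg.Agent.Lib.Chev.RootG2

/-!
# Two generators for `B₂(q)`, `G₂(q)`
-/

namespace Cfsg.Agent.Lib.Chev.TwoGen

open Cfsg.Lie Matrix

variable {F : Type*} [Field F]
variable {T : Tabs} {X : Extra} {R : RootTab} {D : ChevalleyDatum}

set_option maxRecDepth 100000

theorem two_gen_B2 [Fintype F] (hq : 2 < Fintype.card F) : ∃ a b : ↥(chevB2.group F), Subgroup.closure ({a, b} : Set ↥(chevB2.group F)) = ⊤ := by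
  obtain ⟨z, hz⟩ := IsCyclic.exists_generator (α := Fˣ)
  have hp0 : pz chevB2 3 0 = 0 := by decide +kernel
  have hp1 : pz chevB2 3 1 = 1 ∨ pz chevB2 3 1 = -1 := by decide +kernel
  have hp2 : pz chevB2 3 3 = 2 := by decide +kernel
  have hFull : Full TabB2.T TabB2.X RootB2T.R chevB2 := ⟨RelB2.checks, RootB2.checks⟩
  refine design1 hFull (w := [0, 1]) (by decide) (l := 0) (s := 1) (l1 := 3) (s1 := 1) (k1 := 1) (k2 := 0) (by decide +kernel) (by decide +kernel) (cG chevB2 3 z)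
    ?_ ?_ (by decide +kernel) (by decide +kernel) (by decide +kernel) (by decide +kernel) (by decide +kernel) (by decide +kernel) (by decide +kernel) ?_
    [(3,8),(7,8),(4,8)] ?_ (by decide +kernel) ?_ [(1,8),(5,8),(6,8)] (by decide +kernel)
  · rw [chiT_cG, hp0, zpow_zero]
  · rw [chiT_cG]
    exact ne_one_of_pz (gen_ne_one hq hz) hp1
  · rw [chiT_cG, hp2]
    exact dense_sq hz
  · intro H hH
    have h1 : memB 3 (runC chevB2 TabB2.X [[0, 1]] [3] [(3,8),(7,8),(4,8)]) = true := by decide +kernel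
    have h2 : memB (chevB2.neg 3) (runC chevB2 TabB2.X [[0, 1]] [3] [(3,8),(7,8),(4,8)]) = true := by decide +kernel
    exact tor_mem_of_hG hFull (by decide +kernel) z (hH _ (mem_of_memB h1)).2 (hH _ (mem_of_memB h2)).2
  · rw [chiT_cG]
    exact dense_of_pz hz (by decide +kernel)

theorem two_gen_G2_three [Fintype F] [CharP F 3] (hq : 2 < Fintype.card F) : ∃ a b : ↥(chevG2.group F), Subgroup.closure ({a, b} : Set ↥(chevG2.group F)) = ⊤ := by
  obtain ⟨z, hz⟩ := IsCyclic.exists_generator (α := Fˣ)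
  have hFull : Full TabG2.T TabG2.X RootG2T.R chevG2 := ⟨RelG2.checks, RootG2.checks⟩
  have hp : ∀ r, chiT chevG2 (cG chevG2 1 z * cG chevG2 6 z) r = z ^ (pz chevG2 1 r + pz chevG2 6 r) := by
    intro r
    rw [chiT_mul, chiT_cG, chiT_cG, _root_.zpow_add]
  refine design1 hFull (w := [0, 1]) (by decide) (l := 0) (s := 2) (l1 := 6) (s1 := 2) (k1 := 4) (k2 := 0) (by decide +kernel) (by decide +kernel) (cG chevG2 1 z * cG chevG2 6 z)
    ?_ ?_ (by decide +kernel) (by decide +kernel) (by decide +kernel) (by decide +kernel) (by decide +kernel) (by decide +kernel) (by decide +kernel) ?_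
    [(6,12),(1,12),(0,12),(5,12),(10,12)] ?_ (by decide +kernel) ?_ [(2,12),(3,12),(7,12),(9,12),(8,12)] (by decide +kernel)
  · rw [hp, show pz chevG2 1 0 + pz chevG2 6 0 = 0 by decide +kernel, zpow_zero]
  · rw [hp]
    exact ne_one_of_pz (gen_ne_one hq hz) (Or.inl (by decide +kernel))
  · rw [hp, show pz chevG2 1 6 + pz chevG2 6 6 = 3 by decide +kernel]
    exact dense_cube hz
  · intro H hH
    have h1 : ∀ r, r ∈ [1, chevG2.neg 1, 6, chevG2.neg 6] → memB r (runC chevG2 TabG2.X [[0, 1]] [6] [(6,12),(1,12),(0,12),(5,12),(10,12)]) = true := by decide +kernel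
    have h2 := tor_mem_of_hG hFull (by decide +kernel : 1 < chevG2.nroots) z (hH _ (mem_of_memB (h1 _ (by simp)))).2 (hH _ (mem_of_memB (h1 _ (by simp)))).2
    have h3 := tor_mem_of_hG hFull (by decide +kernel : 6 < chevG2.nroots) z (hH _ (mem_of_memB (h1 _ (by simp)))).2 (hH _ (mem_of_memB (h1 _ (by simp)))).2
    rw [← tor_mul]
    exact H.mul_mem h2 h3
  · rw [hp]
    exact dense_of_pz hz (Or.inl (by decide +kernel))

/-- The design for `G₂` in characteristic different from `3`. -/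
theorem design2 [Fintype F] (hF : Full T X R D) (hq : 2 < Fintype.card F) (h3 : (3 : F) ≠ 0) {w : List ℕ} (hw : ∀ i ∈ w, i < D.rank)
    {s l γ p q l2 s1 l1 kp kq kl k1 k2 : ℕ} {c3 : ℤ}
    (hs : s < D.nroots) (hl : l < D.nroots)
    (h0 : pz D γ s = 0) (hlp : pz D γ l = 1 ∨ pz D γ l = -1) (hls : D.commTerms s l = []) (hne1 : l ≠ s) (hne2 : l ≠ D.neg s)
    (hkp : (wAct X w)^[kp] s = p) (hkq : (wAct X w)^[kq] s = q) (hpq : D.commTerms p q = [(l2, c3, 1, 1)]) (hc3 : c3 = 3 ∨ c3 = -3)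
    (hne3 : q ≠ p) (hne4 : q ≠ D.neg p)
    (hkl : (wAct X w)^[kl] l2 = l) (hl2 : l2 < D.nroots)
    (hk1 : (wAct X w)^[k1] s = s1) (hs1 : pz D γ s1 = 1 ∨ pz D γ s1 = -1)
    (hk2 : (wAct X w)^[k2] l = l1) (hl1 : pz D γ l1 = 1 ∨ pz D γ l1 = -1)
    (es : List (ℕ × ℕ)) (hall : ∀ r < D.nroots, memB r (runC D X [w] [s1, l1] es) = true) :
    ∃ a b : ↥(D.group F), Subgroup.closure ({a, b} : Set ↥(D.group F)) = ⊤ := by
  obtain ⟨z, hz⟩ := IsCyclic.exists_generator (α := Fˣ)
  set c := cG D γ z with hc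
  set x := hF.c.xG s (1 : F) with hx
  set y := hF.c.xG l (1 : F) with hy
  set u : GL D.Idx F := tor R D c * y with hu
  set a : GL D.Idx F := u * x with ha
  set b : GL D.Idx F := nW hF w with hb
  have ha1 : a ∈ D.group F := (D.group F).mul_mem ((D.group F).mul_mem (tor_mem_group hF c) (hF.c.xG_mem_group hl _))
    (hF.c.xG_mem_group hs _)
  have hb1 : b ∈ D.group F := nW_mem_group hF hw
  refine gen_top hF.c ha1 hb1 ?_
  set H := Subgroup.closure ({a, b} : Set (GL D.Idx F)) with hH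
  have haH : a ∈ H := mem_left
  have hbH : nW hF w ∈ H := mem_right
  have hcomm1 : Commute (tor R D c) x := by
    have h2 := hF.tor_mul_xG c hs (1 : F)
    rw [hc, chiT_cG, h0, zpow_zero, Units.val_one, one_mul] at h2
    exact h2
  have hcomm2 : Commute x y := commute_of_nil hF hs hl hne1 hne2 hls _ _
  have hcomm : Commute u x := hcomm1.mul_left hcomm2.symm
  have hne : chiT D c l ≠ 1 := by
    rw [hc, chiT_cG]
    exact ne_one_of_pz (gen_ne_one hq hz) hlp
  obtain ⟨hxH, huH⟩ := extract (hC := hF.c) hx hcomm (tor_mul_x_pow hF c hl hne) haH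
  have hp : p < D.nroots := by
    rw [← hkp]
    exact iter_lt hF hw hs kp
  have hq' : q < D.nroots := by
    rw [← hkq]
    exact iter_lt hF hw hs kq
  have h1 : hF.c.xG p (1 : F) ∈ H := by
    rw [← hkp]
    exact one_iter hF hw hbH hs hxH kp
  have h2 : hF.c.xG q (1 : F) ∈ H := by
    rw [← hkq]
    exact one_iter hF hw hbH hs hxH kq
  have h4 : hF.c.xG l2 (3 : F) ∈ H := by
    have h5 := hF.xG_comm hp hq' hne3 hne4 (1 : F) (1 : F)
    rw [ChevalleyDatum.commWord, hpq] at h5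
    simp only [List.map_cons, List.map_nil, Checks.wordG_cons, Checks.wordG_nil, mul_one] at h5
    have h6 : hF.c.xG l2 (((c3 : ℤ) : F) * (-1) ^ 1 * 1 ^ 1) ∈ H := by
      have h7 : hF.c.xG l2 (((c3 : ℤ) : F) * (-1) ^ 1 * 1 ^ 1) =
          (hF.c.xG p (1 : F) * hF.c.xG q (1 : F))⁻¹ * (hF.c.xG q (1 : F) * hF.c.xG p (1 : F)) := by
        rw [h5]
        group
      rw [h7]
      exact H.mul_mem (H.inv_mem (H.mul_mem h1 h2)) (H.mul_mem h2 h1)
    rcases hc3 with rfl | rfl
    · have h8 := xG_neg_mem h6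
      convert h8 using 2
      push_cast
      ring
    · convert h6 using 2
      push_cast
      ring
  have h5 : hF.c.xG l2 (1 : F) ∈ H := by
    have h6 := H.pow_mem h4 (3 ^ (Fintype.card F - 2))
    rw [xG_pow] at h6
    convert h6 using 2
    push_cast
    rw [← pow_succ]
    have h7 : Fintype.card F - 2 + 1 = Fintype.card F - 1 := by omega
    rw [h7, FiniteField.pow_card_sub_one_eq_one _ h3]
  have h6 : y ∈ H := by
    rw [hy, ← hkl]
    exact one_iter hF hw hbH hl2 h5 kl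
  have h7 : tor R D c ∈ H := by
    have := H.mul_mem huH (H.inv_mem h6)
    rwa [hu, mul_inv_cancel_right] at this
  have hs1l : s1 < D.nroots := by
    rw [← hk1]
    exact iter_lt hF hw hs k1
  have hl1l : l1 < D.nroots := by
    rw [← hk2]
    exact iter_lt hF hw hl k2
  have h8 : hF.c.xG s1 (1 : F) ∈ H := by
    rw [← hk1]
    exact one_iter hF hw hbH hs hxH k1
  have h9 : hF.c.xG l1 (1 : F) ∈ H := by
    rw [← hk2]
    exact one_iter hF hw hbH hl h6 k2
  have h10 : Sat hF.c H s1 := sat_of_dense h7 h8 (a := chiT D c s1) (fun t => hF.tor_conj_xG c hs1l t) (by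
    rw [hc, chiT_cG]
    exact dense_of_pz hz hs1)
  have h11 : Sat hF.c H l1 := sat_of_dense h7 h9 (a := chiT D c l1) (fun t => hF.tor_conj_xG c hl1l t) (by
    rw [hc, chiT_cG]
    exact dense_of_pz hz hl1)
  have h12 := runC_sound (H := H) hF (ws := [w]) (by simpa using ⟨hw, hbH⟩) es (known := [s1, l1]) (by
    simpa using ⟨⟨hs1l, h10⟩, hl1l, h11⟩)
  intro r hr
  exact (h12 r (mem_of_memB (hall r hr))).2

theorem two_gen_G2_not_three [Fintype F] (hq : 2 < Fintype.card F) (h3 : (3 : F) ≠ 0) : ∃ a b : ↥(chevG2.group F), Subgroup.closure ({a, b} : Set ↥(chevG2.group F)) = ⊤ :=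
  design2 (T := TabG2.T) (X := TabG2.X) (R := RootG2T.R) ⟨RelG2.checks, RootG2.checks⟩ hq h3 (w := [0, 1]) (by decide) (s := 2) (l := 0) (γ := 5) (p := 2) (q := 3) (l2 := 0)
    (s1 := 3) (l1 := 0) (kp := 0) (kq := 1) (kl := 0) (k1 := 1) (k2 := 0) (c3 := 3)
    (by decide +kernel) (by decide +kernel) (by decide +kernel) (by decide +kernel) (by decide +kernel) (by decide +kernel) (by decide +kernel)
    (by decide +kernel) (by decide +kernel) (by decide +kernel) (by decide +kernel) (by decide +kernel) (by decide +kernel) (by decide +kernel) (by decide +kernel)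
    (by decide +kernel) (by decide +kernel) (by decide +kernel) (by decide +kernel)
    [(3,12),(0,12),(7,12),(5,12),(9,12),(10,12),(8,12),(11,12),(4,12),(6,12)] (by decide +kernel)

theorem two_gen_G2 [Fintype F] (hq : 2 < Fintype.card F) : ∃ a b : ↥(chevG2.group F), Subgroup.closure ({a, b} : Set ↥(chevG2.group F)) = ⊤ := by
  by_cases h3 : (3 : F) = 0
  · obtain ⟨p, hp⟩ := CharP.exists F
    obtain ⟨n, hn, -⟩ := FiniteField.card F p
    have h4 : p ∣ 3 := (CharP.cast_eq_zero_iff F p 3).1 (by exact_mod_cast h3)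
    have h5 : p = 3 := (Nat.prime_dvd_prime_iff_eq hn Nat.prime_three).1 h4
    subst h5
    exact two_gen_G2_three hq
  · exact two_gen_G2_not_three hq h3

end Cfsg.Agent.Lib.Chev.TwoGen
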