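import Cfsg.Agent.Lib.Chev.Comms
import Cfsg.Agent.Lib.Chev.TorusCard
import Cfsg.Agent.Lib.Chev.BNPairChev

/-!
# Two generators for Chevalley groups over finite fields: tools

Root elements are propagated through the monomial elements, the torus and the commutator formula.
-/

namespace Cfsg.Agent.Lib.Chev.TwoGen

open Cfsg.Lie Matrix

variable {F : Type*} [Field F]
variable {T : Tabs} {X : Extra} {R : RootTab} {D : ChevalleyDatum} (hF : Full T X R D)

/-- The product of the `n_i` along a word. -/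
noncomputable def nW (w : List ℕ) : GL D.Idx F := (w.map fun i => hF.nS (F := F) i).prod

/-- The action of a word on the root indices. -/
noncomputable def wAct (X : Extra) : List ℕ → ℕ → ℕ
  | [], s => s
  | i :: w, s => X.wf i (wAct X w s)

include hF in
theorem nW_mem_monomial {w : List ℕ} (hw : ∀ i ∈ w, i < D.rank) :
    nW hF (F := F) w ∈ D.monomialSubgroup F := by
  induction w with
  | nil => exact Subgroup.one_mem _
  | cons i w ih =>
    have h : nW hF (F := F) (i :: w) = hF.nS i * nW hF w := by simp [nW]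
    rw [h]
    exact Subgroup.mul_mem _ (hF.nS_mem_monomial (hw i List.mem_cons_self))
      (ih fun j hj => hw j (List.mem_cons_of_mem _ hj))

include hF in
theorem nW_mem_group {w : List ℕ} (hw : ∀ i ∈ w, i < D.rank) : nW hF (F := F) w ∈ D.group F :=
  hF.c.monomial_le_group (nW_mem_monomial hF hw)

include hF in
theorem nW_conj {w : List ℕ} (hw : ∀ i ∈ w, i < D.rank) {s : ℕ} (hs : s < D.nroots) :
    wAct X w s < D.nroots ∧ ∃ e : F, e * e = 1 ∧ ∀ t : F,
      nW hF w * hF.c.xG s t * (nW hF w)⁻¹ = hF.c.xG (wAct X w s) (e * t) := by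
  induction w with
  | nil => exact ⟨hs, 1, by simp, fun t => by simp [nW, wAct]⟩
  | cons i w ih =>
    obtain ⟨h1, e, he, hc⟩ := ih (fun j hj => hw j (List.mem_cons_of_mem _ hj))
    have hi := hw i List.mem_cons_self
    refine ⟨hF.wf_lt hi h1, ((X.eta i (wAct X w s) : ℤ) : F) * e, ?_, fun t => ?_⟩
    · have h2 := hF.eta_sq (F := F) hi h1
      calc ((X.eta i (wAct X w s) : ℤ) : F) * e * (((X.eta i (wAct X w s) : ℤ) : F) * e)
          = (((X.eta i (wAct X w s) : ℤ) : F) * ((X.eta i (wAct X w s) : ℤ) : F)) * (e * e) := by ring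
        _ = 1 := by rw [h2, he, one_mul]
    · have h : nW hF (F := F) (i :: w) = hF.nS i * nW hF w := by simp [nW]
      rw [h]
      have h3 : hF.nS i * nW hF w * hF.c.xG s t * (hF.nS i * nW hF w)⁻¹ =
          hF.nS i * (nW hF w * hF.c.xG s t * (nW hF w)⁻¹) * (hF.nS i)⁻¹ := by group
      rw [h3, hc, hF.nS_conj_xG hi h1, mul_assoc]
      rfl

/-- All the elements of the root subgroup are in `H`. -/
def Sat (hC : Checks T X D) (H : Subgroup (GL D.Idx F)) (r : ℕ) : Prop := ∀ t : F, hC.xG r t ∈ H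

variable {hC : Checks T X D} {H : Subgroup (GL D.Idx F)}

theorem xG_neg_mem {r : ℕ} {t : F} (h : hC.xG r t ∈ H) : hC.xG r (-t) ∈ H := by
  rw [← hC.xG_inv]; exact H.inv_mem h

theorem sat_conj {g : GL D.Idx F} (hg : g ∈ H) {r k : ℕ} {e : F} (he : e ≠ 0)
    (hc : ∀ t, g * hC.xG r t * g⁻¹ = hC.xG k (e * t)) (hs : Sat hC H r) : Sat hC H k := by
  intro t
  have h2 := H.mul_mem (H.mul_mem hg (hs (e⁻¹ * t))) (H.inv_mem hg)
  rw [hc, ← mul_assoc, mul_inv_cancel₀ he, one_mul] at h2
  exact h2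

theorem one_conj {g : GL D.Idx F} (hg : g ∈ H) {r k : ℕ} {e : F} (he : e * e = 1)
    (hc : ∀ t, g * hC.xG r t * g⁻¹ = hC.xG k (e * t)) (h1 : hC.xG r (1 : F) ∈ H) :
    hC.xG k (1 : F) ∈ H := by
  have h2 := H.mul_mem (H.mul_mem hg h1) (H.inv_mem hg)
  rw [hc, mul_one] at h2
  rcases mul_self_eq_one_iff.1 he with h | h
  · rwa [h] at h2
  · rw [h] at h2
    have h3 := xG_neg_mem h2
    rwa [neg_neg] at h3

theorem xG_pow (r : ℕ) (t : F) (n : ℕ) : hC.xG r t ^ n = hC.xG r ((n : F) * t) := by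
  induction n with
  | zero => simp
  | succ n ih =>
    rw [pow_succ, ih, hC.xG_add]
    congr 1
    push_cast
    ring

theorem sat_nW (hF : Full T X R D) {w : List ℕ} (hw : ∀ i ∈ w, i < D.rank) (hb : nW hF w ∈ H) {s : ℕ} (hs : s < D.nroots)
    (h : Sat hF.c H s) : Sat hF.c H (wAct X w s) := by
  obtain ⟨-, e, he, hc⟩ := nW_conj hF (F := F) hw hs
  refine sat_conj hb ?_ hc h
  intro h0
  rw [h0, mul_zero] at he
  exact zero_ne_one he

theorem one_nW (hF : Full T X R D) {w : List ℕ} (hw : ∀ i ∈ w, i < D.rank) (hb : nW hF w ∈ H) {s : ℕ} (hs : s < D.nroots)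
    (h : hF.c.xG s (1 : F) ∈ H) : hF.c.xG (wAct X w s) (1 : F) ∈ H := by
  obtain ⟨-, e, he, hc⟩ := nW_conj hF (F := F) hw hs
  exact one_conj hb he hc h

theorem wAct_lt (hF : Full T X R D) {w : List ℕ} (hw : ∀ i ∈ w, i < D.rank) {s : ℕ} (hs : s < D.nroots) :
    wAct X w s < D.nroots := by
  induction w with
  | nil => exact hs
  | cons i w ih =>
    exact hF.wf_lt (hw i List.mem_cons_self) (ih fun j hj => hw j (List.mem_cons_of_mem _ hj))

theorem iter_lt (hF : Full T X R D) {w : List ℕ} (hw : ∀ i ∈ w, i < D.rank) {s : ℕ} (hs : s < D.nroots) (k : ℕ) :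
    (wAct X w)^[k] s < D.nroots := by
  induction k with
  | zero => exact hs
  | succ k ih =>
    rw [Function.iterate_succ_apply']
    exact wAct_lt hF hw ih

theorem one_iter (hF : Full T X R D) {w : List ℕ} (hw : ∀ i ∈ w, i < D.rank) (hb : nW hF w ∈ H) {s : ℕ} (hs : s < D.nroots)
    (h : hF.c.xG s (1 : F) ∈ H) (k : ℕ) : hF.c.xG ((wAct X w)^[k] s) (1 : F) ∈ H := by
  induction k with
  | zero => exact h
  | succ k ih =>
    rw [Function.iterate_succ_apply']
    exact one_nW hF hw hb (iter_lt hF hw hs k) ih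

theorem sat_iter (hF : Full T X R D) {w : List ℕ} (hw : ∀ i ∈ w, i < D.rank) (hb : nW hF w ∈ H) {s : ℕ} (hs : s < D.nroots)
    (h : Sat hF.c H s) (k : ℕ) : Sat hF.c H ((wAct X w)^[k] s) := by
  induction k with
  | zero => exact h
  | succ k ih =>
    rw [Function.iterate_succ_apply']
    exact sat_nW hF hw hb (iter_lt hF hw hs k) ih

/-- The powers of `a` generate `F` additively. -/
def Dense (a : Fˣ) : Prop := ∀ S : AddSubgroup F, (∀ n : ℕ, ((a ^ n : Fˣ) : F) ∈ S) → S = ⊤

theorem sat_of_dense {g : GL D.Idx F} (hg : g ∈ H) {r : ℕ} (h1 : hC.xG r (1 : F) ∈ H) {a : Fˣ}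
    (hc : ∀ t, g * hC.xG r t * g⁻¹ = hC.xG r ((a : F) * t)) (hd : Dense a) : Sat hC H r := by
  let S : AddSubgroup F :=
    { carrier := {t | hC.xG r t ∈ H}
      add_mem' := by
        intro s t hs ht
        show hC.xG r (s + t) ∈ H
        rw [← hC.xG_add]
        exact H.mul_mem hs ht
      zero_mem' := by
        show hC.xG r (0 : F) ∈ H
        rw [hC.xG_zero]
        exact H.one_mem
      neg_mem' := by
        intro t ht
        exact xG_neg_mem ht }
  have hS : ∀ n : ℕ, ((a ^ n : Fˣ) : F) ∈ S := by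
    intro n
    induction n with
    | zero =>
      show hC.xG r ((a ^ 0 : Fˣ) : F) ∈ H
      simpa using h1
    | succ n ih =>
      have h2 := H.mul_mem (H.mul_mem hg ih) (H.inv_mem hg)
      rw [hc] at h2
      show hC.xG r ((a ^ (n + 1) : Fˣ) : F) ∈ H
      convert h2 using 2
      rw [pow_succ, Units.val_mul, mul_comm]
  have h3 := hd S hS
  intro t
  have h4 : t ∈ S := by rw [h3]; trivial
  exact h4

theorem dense_of_gen {a : Fˣ} (h : ∀ u : Fˣ, ∃ n : ℕ, a ^ n = u) : Dense a := by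
  intro S hS
  rw [eq_top_iff]
  intro t _
  by_cases ht : t = 0
  · rw [ht]; exact S.zero_mem
  · obtain ⟨n, hn⟩ := h (Units.mk0 t ht)
    have h1 := hS n
    rw [hn] at h1
    exact h1

theorem gen_pow [Finite F] {z : Fˣ} (hz : ∀ x : Fˣ, x ∈ Subgroup.zpowers z) (u : Fˣ) : ∃ n : ℕ, z ^ n = u := by
  have h1 : u ∈ Submonoid.powers z := mem_powers_iff_mem_zpowers.2 (hz u)
  exact h1

theorem gen_inv_pow [Finite F] {z : Fˣ} (hz : ∀ x : Fˣ, x ∈ Subgroup.zpowers z) (u : Fˣ) : ∃ n : ℕ, z⁻¹ ^ n = u := by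
  obtain ⟨n, hn⟩ := gen_pow hz u⁻¹
  refine ⟨n, ?_⟩
  rw [inv_pow, hn, inv_inv]

/-! ### The torus -/

/-- The value on `s` of the coroot of `γ`. -/
noncomputable def pz (D : ChevalleyDatum) (γ s : ℕ) : ℤ :=
  sumZ D.rank (fun i => (D.coroot.getD γ #[]).getD i 0 * D.cartan i s)

/-- the parameters of `h_γ(c)` -/
noncomputable def cG (D : ChevalleyDatum) (γ : ℕ) (c : Fˣ) : Fin D.rank → Fˣ :=
  fun i => c ^ (D.coroot.getD γ #[]).getD i 0

theorem chiT_cG (D : ChevalleyDatum) (γ : ℕ) (c : Fˣ) (s : ℕ) : chiT D (cG D γ c) s = c ^ pz D γ s := by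
  unfold chiT cG pz
  rw [sumZ_eq]
  have h1 : ∀ i : Fin D.rank, (c ^ (D.coroot.getD γ #[]).getD i 0) ^ D.cartan i s =
      c ^ ((D.coroot.getD γ #[]).getD i 0 * D.cartan i s) := fun i => (_root_.zpow_mul c _ _).symm
  simp_rw [h1]
  rw [prod_zpow_eq_zpow_sum']
  congr 1
  exact Fin.sum_univ_eq_sum_range (fun i => (D.coroot.getD γ #[]).getD i 0 * D.cartan i s) D.rank

theorem chiT_mul (D : ChevalleyDatum) (c e : Fin D.rank → Fˣ) (s : ℕ) :
    chiT D (c * e) s = chiT D c s * chiT D e s := by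
  unfold chiT
  rw [← Finset.prod_mul_distrib]
  apply Finset.prod_congr rfl
  intro i _
  rw [Pi.mul_apply, mul_zpow]

theorem tor_pow (c : Fin D.rank → Fˣ) (n : ℕ) : (tor R D c) ^ n = tor R D (c ^ n) := by
  have := map_pow (torHom R D) c n
  simpa using this.symm

theorem tor_pow_card [Fintype F] (c : Fin D.rank → Fˣ) : (tor R D c) ^ (Fintype.card F - 1) = 1 := by
  rw [tor_pow]
  classical
  have h : c ^ (Fintype.card F - 1) = 1 := by
    funext i
    rw [Pi.pow_apply, Pi.one_apply, ← Fintype.card_units]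
    exact pow_card_eq_one
  rw [h, tor_one]

theorem tor_mem_of_hG (hF : Full T X R D) {γ : ℕ} (hγ : γ < D.nroots) (c : Fˣ) (h1 : Sat hF.c H γ) (h2 : Sat hF.c H (D.neg γ)) :
    tor R D (cG D γ c) ∈ H := by
  have h3 := hF.hG_eq_tor hγ c
  have h4 : tor R D (cG D γ c) = hF.c.hG γ (c : F) := h3.symm
  rw [h4, Checks.hG, Checks.nG, Checks.nG]
  exact H.mul_mem (H.mul_mem (H.mul_mem (h1 _) (h2 _)) (h1 _)) (H.mul_mem (H.mul_mem (h1 _) (h2 _)) (h1 _))

/-- `h x_s(1)` is a conjugate of `h` if `h` moves `s`. -/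
theorem tor_mul_x_eq (hF : Full T X R D) (c : Fin D.rank → Fˣ) {s : ℕ} (hs : s < D.nroots) (hne : chiT D c s ≠ 1) :
    ∃ k : F, tor R D c * hF.c.xG s (1 : F) = hF.c.xG s (-k) * tor R D c * hF.c.xG s k := by
  set a : F := ((chiT D c s : Fˣ) : F) with ha
  have ha0 : a ≠ 0 := Units.ne_zero _
  have ha1 : a ≠ 1 := by
    intro h
    apply hne
    apply Units.ext
    rw [Units.val_one]
    exact h
  have h1 : (1 - a⁻¹) ≠ 0 := by
    intro h
    apply ha1
    have : a⁻¹ = 1 := by linear_combination -h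
    rw [inv_eq_one] at this
    exact this
  refine ⟨(1 - a⁻¹)⁻¹, ?_⟩
  have h2 := hF.tor_mul_xG c hs (-(a⁻¹ * (1 - a⁻¹)⁻¹))
  rw [← ha] at h2
  have h3 : a * -(a⁻¹ * (1 - a⁻¹)⁻¹) = -(1 - a⁻¹)⁻¹ := by
    field_simp
  rw [h3] at h2
  rw [← h2, mul_assoc, hF.c.xG_add]
  congr 2
  have h5 : -(a⁻¹ * (1 - a⁻¹)⁻¹) + (1 - a⁻¹)⁻¹ = (1 - a⁻¹) * (1 - a⁻¹)⁻¹ := by ring
  rw [h5, mul_inv_cancel₀ h1]

theorem tor_mul_x_pow [Fintype F] (hF : Full T X R D) (c : Fin D.rank → Fˣ) {s : ℕ} (hs : s < D.nroots) (hne : chiT D c s ≠ 1) :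
    (tor R D c * hF.c.xG s (1 : F)) ^ (Fintype.card F - 1) = 1 := by
  obtain ⟨k, hk⟩ := tor_mul_x_eq hF c hs hne
  rw [hk]
  have h1 : hF.c.xG s (-k) = (hF.c.xG s k)⁻¹ := (hF.c.xG_inv s k).symm
  rw [h1]
  have h2 := conj_pow (a := (hF.c.xG s k)⁻¹) (b := tor R D c) (i := Fintype.card F - 1)
  simp only [inv_inv] at h2
  rw [h2, tor_pow_card]
  simp

/-- Extracting the unipotent part. -/
theorem extract [Fintype F] {u x : GL D.Idx F} {l : ℕ} (hx : x = hC.xG l (1 : F)) (hcomm : Commute u x)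
    (hu : u ^ (Fintype.card F - 1) = 1) (ha : u * x ∈ H) : x ∈ H ∧ u ∈ H := by
  have h1 : (u * x) ^ (Fintype.card F - 1) = hC.xG l (-1 : F) := by
    rw [hcomm.mul_pow, hu, one_mul, hx, xG_pow]
    congr 1
    have h2 : ((Fintype.card F - 1 : ℕ) : F) = -1 := by
      have h3 : 1 ≤ Fintype.card F := Fintype.card_pos
      rw [Nat.cast_sub h3]
      simp
    rw [h2]
    ring
  have h2 := H.pow_mem ha (Fintype.card F - 1)
  rw [h1] at h2
  have h3 := xG_neg_mem h2
  rw [neg_neg, ← hx] at h3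
  exact ⟨h3, by simpa using H.mul_mem ha (H.inv_mem h3)⟩

/-! ### Commutators -/

theorem commute_of_nil (hF : Full T X R D) {r s : ℕ} (hr : r < D.nroots) (hs : s < D.nroots) (h1 : s ≠ r) (h2 : s ≠ D.neg r)
    (h : D.commTerms r s = []) (t u : F) : Commute (hF.c.xG r t) (hF.c.xG s u) := by
  have h3 := hF.xG_comm hr hs h1 h2 t u
  have h4 : hF.c.wordG (D.commWord F r s t u) = 1 := by
    rw [ChevalleyDatum.commWord, h]
    rfl
  rw [h4, mul_one] at h3
  exact h3.symm

theorem comm_sat (hF : Full T X R D) {r s k : ℕ} {c : ℤ} (hr : r < D.nroots) (hs : s < D.nroots) (h1 : s ≠ r) (h2 : s ≠ D.neg r)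
    (h : D.commTerms r s = [(k, c, 1, 1)]) (hc : c = 1 ∨ c = -1) (h3 : Sat hF.c H r) (h4 : Sat hF.c H s) : Sat hF.c H k := by
  intro v
  have h5 := hF.xG_comm hr hs h1 h2 (-1 : F) ((c : F) * v)
  have h6 : hF.c.wordG (D.commWord F r s (-1) ((c : F) * v)) = hF.c.xG k v := by
    rw [ChevalleyDatum.commWord, h]
    have h7 : (c : F) * (c : F) = 1 := by
      rcases hc with rfl | rfl <;> simp
    simp only [List.map_cons, List.map_nil, Checks.wordG_cons, Checks.wordG_nil, mul_one]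
    congr 1
    simp only [pow_one, neg_neg, mul_one]
    rw [← mul_assoc, h7, one_mul]
  rw [h6] at h5
  have h8 : hF.c.xG k v = (hF.c.xG r (-1 : F) * hF.c.xG s ((c : F) * v))⁻¹ * (hF.c.xG s ((c : F) * v) * hF.c.xG r (-1 : F)) := by
    rw [h5]
    group
  rw [h8]
  exact H.mul_mem (H.inv_mem (H.mul_mem (h3 _) (h4 _))) (H.mul_mem (h4 _) (h3 _))

/-! ### Certificates -/

/-- membership -/
def memB (a : ℕ) : List ℕ → Bool
  | [] => false
  | b :: L => Nat.beq a b || memB a L

theorem mem_of_memB {a : ℕ} {L : List ℕ} (h : memB a L = true) : a ∈ L := by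
  induction L with
  | nil => simp [memB] at h
  | cons b L ih =>
    simp only [memB, Bool.or_eq_true] at h
    rcases h with h | h
    · rw [Nat.eq_of_beq_eq_true h]; exact List.mem_cons_self
    · exact List.mem_cons_of_mem _ (ih h)

/-- The only term of a commutator, if it has a unit coefficient. -/
def soleTerm : List (ℕ × ℤ × ℕ × ℕ) → Option ℕ
  | [(k, c, i, j)] => if i = 1 ∧ j = 1 ∧ (c = 1 ∨ c = -1) then some k else none
  | _ => none

theorem soleTerm_spec {L : List (ℕ × ℤ × ℕ × ℕ)} {k : ℕ} (h : soleTerm L = some k) :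
    ∃ c, L = [(k, c, 1, 1)] ∧ (c = 1 ∨ c = -1) := by
  match L, h with
  | [(k', c, i, j)], h =>
    simp only [soleTerm] at h
    split_ifs at h with h1
    obtain ⟨rfl, rfl, h2⟩ := h1
    simp only [Option.some.injEq] at h
    subst h
    exact ⟨c, rfl, h2⟩

/-- One step: `(r, s)` with `s` in range: the commutator of `x_r` and `x_s`; otherwise: apply a word. -/
noncomputable def addC (D : ChevalleyDatum) (X : Extra) (ws : List (List ℕ)) (known : List ℕ) (e : ℕ × ℕ) : List ℕ :=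
  bif memB e.1 known then
    bif Nat.blt e.2 D.nroots then
      bif memB e.2 known && !Nat.beq e.2 e.1 && !Nat.beq e.2 (D.neg e.1) then
        match soleTerm (D.commTerms e.1 e.2) with
        | some k => k :: known
        | none => known
      else known
    else wAct X (ws.getD (e.2 - D.nroots) []) e.1 :: known
  else known

/-- Running a certificate. -/
noncomputable def runC (D : ChevalleyDatum) (X : Extra) (ws : List (List ℕ)) (known : List ℕ) : List (ℕ × ℕ) → List ℕ
  | [] => known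
  | e :: es => runC D X ws (addC D X ws known e) es

theorem addC_sound (hF : Full T X R D) {ws : List (List ℕ)} (hw : ∀ w ∈ ws, (∀ i ∈ w, i < D.rank) ∧ nW hF w ∈ H)
    {known : List ℕ} (hk : ∀ r ∈ known, r < D.nroots ∧ Sat hF.c H r) (e : ℕ × ℕ) :
    ∀ r ∈ addC D X ws known e, r < D.nroots ∧ Sat hF.c H r := by
  unfold addC
  cases h1 : memB e.1 known with
  | false => simpa using hk
  | true =>
    have h1' := hk _ (mem_of_memB h1)
    simp only [cond_true]
    cases h2 : Nat.blt e.2 D.nroots with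
    | false =>
      simp only [cond_false]
      intro r hr
      rcases List.mem_cons.1 hr with rfl | hr
      · by_cases h0 : e.2 - D.nroots < ws.length
        · have h3 : ws.getD (e.2 - D.nroots) [] ∈ ws := by
            rw [List.getD_eq_getElem _ _ h0]
            exact List.getElem_mem h0
          obtain ⟨h4, h5⟩ := hw _ h3
          exact ⟨wAct_lt hF h4 h1'.1, sat_nW hF h4 h5 h1'.1 h1'.2⟩
        · rw [List.getD_eq_default _ _ (not_lt.1 h0)]
          exact h1'
      · exact hk r hr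
    | true =>
      simp only [cond_true]
      cases h3 : (memB e.2 known && !Nat.beq e.2 e.1 && !Nat.beq e.2 (D.neg e.1)) with
      | false => simpa using hk
      | true =>
        simp only [cond_true]
        simp only [Bool.and_eq_true, Bool.not_eq_true'] at h3
        obtain ⟨⟨h4, h5⟩, h6⟩ := h3
        have h4' := hk _ (mem_of_memB h4)
        have h7 : e.2 ≠ e.1 := fun h => by simp [h] at h5
        have h8 : e.2 ≠ D.neg e.1 := fun h => by simp [h] at h6
        cases h9 : soleTerm (D.commTerms e.1 e.2) with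
        | none => simpa using hk
        | some k =>
          obtain ⟨c, hc, hc2⟩ := soleTerm_spec h9
          intro r hr
          rcases List.mem_cons.1 hr with rfl | hr
          · refine ⟨?_, comm_sat hF h1'.1 h4'.1 h7 h8 hc hc2 h1'.2 h4'.2⟩
            have h10 := hF.commTerms_spec h1'.1 h4'.1 h7 h8 (c := (r, c, 1, 1)) (by rw [hc]; exact List.mem_singleton.2 rfl)
            exact h10.1
          · exact hk r hr

theorem runC_sound (hF : Full T X R D) {ws : List (List ℕ)} (hw : ∀ w ∈ ws, (∀ i ∈ w, i < D.rank) ∧ nW hF w ∈ H)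
    (es : List (ℕ × ℕ)) {known : List ℕ} (hk : ∀ r ∈ known, r < D.nroots ∧ Sat hF.c H r) :
    ∀ r ∈ runC D X ws known es, r < D.nroots ∧ Sat hF.c H r := by
  induction es generalizing known with
  | nil => exact hk
  | cons e es ih => exact ih (addC_sound hF hw hk e)

/-- Passing to the subgroup. -/
theorem gen_top (hC : Checks T X D) {a b : GL D.Idx F} (ha : a ∈ D.group F) (hb : b ∈ D.group F)
    (h : ∀ r < D.nroots, Sat hC (Subgroup.closure {a, b}) r) :
    ∃ a b : ↥(D.group F), Subgroup.closure ({a, b} : Set ↥(D.group F)) = ⊤ := by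
  refine ⟨⟨a, ha⟩, ⟨b, hb⟩, ?_⟩
  have h1 : (Subgroup.closure ({⟨a, ha⟩, ⟨b, hb⟩} : Set ↥(D.group F))).map (D.group F).subtype = Subgroup.closure {a, b} := by
    rw [MonoidHom.map_closure]
    congr 1
    ext x
    simp [Set.image_insert_eq]
  have h2 : D.group F ≤ Subgroup.closure {a, b} := hC.group_le_of fun r hr t => h r hr t
  rw [eq_top_iff]
  intro g _
  have h3 : (g : GL D.Idx F) ∈ (Subgroup.closure ({⟨a, ha⟩, ⟨b, hb⟩} : Set ↥(D.group F))).map (D.group F).subtype := by
    rw [h1]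
    exact h2 g.2
  obtain ⟨g', hg', he⟩ := h3
  have : g' = g := Subtype.ext he
  rwa [this] at hg'

end Cfsg.Agent.Lib.Chev.TwoGen
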