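import Cfsg.Agent.Lib.ChevGen2.Basic

/-!
# Two generators for Chevalley groups over finite fields: the general constructions
-/

namespace Cfsg.Agent.Lib.Chev.TwoGen

open Cfsg.Lie Matrix

variable {F : Type*} [Field F]
variable {T : Tabs} {X : Extra} {R : RootTab} {D : ChevalleyDatum}

theorem mem_left {G : Type*} [Group G] {a b : G} : a ∈ Subgroup.closure ({a, b} : Set G) :=
  Subgroup.subset_closure (Set.mem_insert _ _)

theorem mem_right {G : Type*} [Group G] {a b : G} : b ∈ Subgroup.closure ({a, b} : Set G) :=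
  Subgroup.subset_closure (Set.mem_insert_of_mem _ (Set.mem_singleton _))

theorem tor_mem_group (hF : Full T X R D) (c : Fin D.rank → Fˣ) : tor R D c ∈ D.group F :=
  hF.c.diagonal_le_group (hF.tor_mem_diagonal c)

theorem dense_of_pz [Finite F] {z : Fˣ} (hz : ∀ x : Fˣ, x ∈ Subgroup.zpowers z) {e : ℤ} (he : e = 1 ∨ e = -1) :
    Dense (z ^ e) := by
  rcases he with rfl | rfl
  · rw [_root_.zpow_one]
    exact dense_of_gen (gen_pow hz)
  · rw [_root_.zpow_neg_one]
    exact dense_of_gen (gen_inv_pow hz)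

theorem ne_one_of_pz {z : Fˣ} (hz : z ≠ 1) {e : ℤ} (he : e = 1 ∨ e = -1) : z ^ e ≠ 1 := by
  rcases he with rfl | rfl
  · rwa [_root_.zpow_one]
  · rwa [_root_.zpow_neg_one, ne_eq, inv_eq_one]

/-- The design `a = h x_l(1)`, `b` a monomial word. -/
theorem design0 [Fintype F] (hF : Full T X R D) {w : List ℕ} (hw : ∀ i ∈ w, i < D.rank) {l γ l1 k : ℕ}
    (hl : l < D.nroots) (h0 : pz D γ l = 0) (hk : (wAct X w)^[k] l = l1) (h1 : pz D γ l1 = 1 ∨ pz D γ l1 = -1)
    (es : List (ℕ × ℕ)) (hall : ∀ r < D.nroots, memB r (runC D X [w] [l1] es) = true) :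
    ∃ a b : ↥(D.group F), Subgroup.closure ({a, b} : Set ↥(D.group F)) = ⊤ := by
  obtain ⟨z, hz⟩ := IsCyclic.exists_generator (α := Fˣ)
  set c := cG D γ z with hc
  set x := hF.c.xG l (1 : F) with hx
  set a : GL D.Idx F := tor R D c * x with ha
  set b : GL D.Idx F := nW hF w with hb
  have ha1 : a ∈ D.group F := (D.group F).mul_mem (tor_mem_group hF c) (hF.c.xG_mem_group hl _)
  have hb1 : b ∈ D.group F := nW_mem_group hF hw
  refine gen_top hF.c ha1 hb1 ?_
  set H := Subgroup.closure ({a, b} : Set (GL D.Idx F)) with hH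
  have haH : a ∈ H := mem_left
  have hbH : nW hF w ∈ H := mem_right
  have hcomm : Commute (tor R D c) x := by
    have h2 := hF.tor_mul_xG c hl (1 : F)
    rw [hc, chiT_cG, h0, zpow_zero, Units.val_one, one_mul] at h2
    exact h2
  obtain ⟨hxH, huH⟩ := extract (hC := hF.c) hx hcomm (tor_pow_card c) haH
  have h2 : hF.c.xG l1 (1 : F) ∈ H := by
    rw [← hk]
    exact one_iter hF hw hbH hl hxH k
  have hl1 : l1 < D.nroots := by
    rw [← hk]
    exact iter_lt hF hw hl k
  have h3 : Sat hF.c H l1 := by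
    refine sat_of_dense huH h2 (a := chiT D c l1) (fun t => hF.tor_conj_xG c hl1 t) ?_
    rw [hc, chiT_cG]
    exact dense_of_pz hz h1
  have h4 := runC_sound (H := H) hF (ws := [w]) (by simpa using ⟨hw, hbH⟩) es (known := [l1]) (by simpa using ⟨hl1, h3⟩)
  intro r hr
  exact (h4 r (mem_of_memB (hall r hr))).2

/-- The design `a = h x_s(1) x_l(1)`, `b` a monomial word. -/
theorem design1 [Fintype F] (hF : Full T X R D) {w : List ℕ} (hw : ∀ i ∈ w, i < D.rank) {l s l1 s1 k1 k2 : ℕ}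
    (hl : l < D.nroots) (hs : s < D.nroots) (c : Fin D.rank → Fˣ)
    (hlc : chiT D c l = 1) (hsc : chiT D c s ≠ 1)
    (hls : D.commTerms l s = []) (hne1 : s ≠ l) (hne2 : s ≠ D.neg l)
    (hk1 : (wAct X w)^[k1] l = l1) (hl1s : D.commTerms l1 s = []) (hne3 : s ≠ l1) (hne4 : s ≠ D.neg l1)
    (hd1 : Dense (chiT D c l1)) (es1 : List (ℕ × ℕ))
    (hT : ∀ H : Subgroup (GL D.Idx F), (∀ r ∈ runC D X [w] [l1] es1, r < D.nroots ∧ Sat hF.c H r) → tor R D c ∈ H)
    (hk2 : (wAct X w)^[k2] s = s1) (hd2 : Dense (chiT D c s1)) (es2 : List (ℕ × ℕ))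
    (hall : ∀ r < D.nroots, memB r (runC D X [w] (s1 :: runC D X [w] [l1] es1) es2) = true) :
    ∃ a b : ↥(D.group F), Subgroup.closure ({a, b} : Set ↥(D.group F)) = ⊤ := by
  set x := hF.c.xG l (1 : F) with hx
  set y := hF.c.xG s (1 : F) with hy
  set u : GL D.Idx F := tor R D c * y with hu
  set a : GL D.Idx F := u * x with ha
  set b : GL D.Idx F := nW hF w with hb
  have ha1 : a ∈ D.group F := (D.group F).mul_mem ((D.group F).mul_mem (tor_mem_group hF c) (hF.c.xG_mem_group hs _))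
    (hF.c.xG_mem_group hl _)
  have hb1 : b ∈ D.group F := nW_mem_group hF hw
  refine gen_top hF.c ha1 hb1 ?_
  set H := Subgroup.closure ({a, b} : Set (GL D.Idx F)) with hH
  have haH : a ∈ H := mem_left
  have hbH : nW hF w ∈ H := mem_right
  have hcomm1 : Commute (tor R D c) x := by
    have h2 := hF.tor_mul_xG c hl (1 : F)
    rw [hlc, Units.val_one, one_mul] at h2
    exact h2
  have hcomm2 : Commute x y := commute_of_nil hF hl hs hne1 hne2 hls _ _
  have hcomm : Commute u x := hcomm1.mul_left hcomm2.symm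
  obtain ⟨hxH, huH⟩ := extract (hC := hF.c) hx hcomm (tor_mul_x_pow hF c hs hsc) haH
  have hl1 : l1 < D.nroots := by
    rw [← hk1]
    exact iter_lt hF hw hl k1
  have h2 : hF.c.xG l1 (1 : F) ∈ H := by
    rw [← hk1]
    exact one_iter hF hw hbH hl hxH k1
  have h3 : Sat hF.c H l1 := by
    refine sat_of_dense huH h2 (a := chiT D c l1) (fun t => ?_) hd1
    have h4 : Commute (hF.c.xG l1 t) y := commute_of_nil hF hl1 hs hne3 hne4 hl1s _ _
    have h5 : u * hF.c.xG l1 t * u⁻¹ = tor R D c * hF.c.xG l1 t * (tor R D c)⁻¹ := by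
      have h6 : tor R D c * y * hF.c.xG l1 t * (tor R D c * y)⁻¹ = tor R D c * (y * hF.c.xG l1 t * y⁻¹) * (tor R D c)⁻¹ := by group
      rw [hu, h6, ← h4.eq, mul_inv_cancel_right]
    rw [h5]
    exact hF.tor_conj_xG c hl1 t
  have h4 := runC_sound (H := H) hF (ws := [w]) (by simpa using ⟨hw, hbH⟩) es1 (known := [l1]) (by simpa using ⟨hl1, h3⟩)
  have h5 := hT H h4
  have h6 : y ∈ H := by
    have := H.mul_mem (H.inv_mem h5) huH
    rwa [hu, inv_mul_cancel_left] at this
  have hs1 : s1 < D.nroots := by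
    rw [← hk2]
    exact iter_lt hF hw hs k2
  have h7 : hF.c.xG s1 (1 : F) ∈ H := by
    rw [← hk2]
    exact one_iter hF hw hbH hs h6 k2
  have h8 : Sat hF.c H s1 := sat_of_dense h5 h7 (a := chiT D c s1) (fun t => hF.tor_conj_xG c hs1 t) hd2
  have h9 := runC_sound (H := H) hF (ws := [w]) (by simpa using ⟨hw, hbH⟩) es2 (known := s1 :: runC D X [w] [l1] es1) (by
    intro r hr
    rcases List.mem_cons.1 hr with rfl | hr
    · exact ⟨hs1, h8⟩
    · exact h4 r hr)
  intro r hr
  exact (h9 r (mem_of_memB (hall r hr))).2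

end Cfsg.Agent.Lib.Chev.TwoGen
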