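import Cfsg.Agent.Lib.ChevGen2.Design

/-!
# Two generators for Chevalley groups over finite fields: small fields, squares and cubes
-/

namespace Cfsg.Agent.Lib.Chev.TwoGen

open Cfsg.Lie Matrix

variable {F : Type*} [Field F]
variable {T : Tabs} {X : Extra} {R : RootTab} {D : ChevalleyDatum}

theorem gen_ne_one [Fintype F] (hq : 2 < Fintype.card F) {z : Fˣ} (hz : ∀ x : Fˣ, x ∈ Subgroup.zpowers z) : z ≠ 1 := by
  classical
  rintro rfl
  have h1 : Fintype.card Fˣ = Fintype.card F - 1 := by rw [Fintype.card_units]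
  have h2 : Subsingleton Fˣ := ⟨fun x y => by
    have hx := hz x
    have hy := hz y
    simp only [Subgroup.zpowers_one_eq_bot, Subgroup.mem_bot] at hx hy
    rw [hx, hy]⟩
  have h3 : Fintype.card Fˣ ≤ 1 := Fintype.card_le_one_iff_subsingleton.2 h2
  omega

/-- The design with a single `h_γ(z)`. -/
theorem design1G [Fintype F] (hF : Full T X R D) (hq : 2 < Fintype.card F) {w : List ℕ} (hw : ∀ i ∈ w, i < D.rank)
    {l s l1 s1 k1 k2 γ : ℕ} (hl : l < D.nroots) (hs : s < D.nroots) (hγ : γ < D.nroots)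
    (h0 : pz D γ l = 0) (hs0 : pz D γ s = 1 ∨ pz D γ s = -1)
    (hls : D.commTerms l s = []) (hne1 : s ≠ l) (hne2 : s ≠ D.neg l)
    (hk1 : (wAct X w)^[k1] l = l1) (hl1s : D.commTerms l1 s = []) (hne3 : s ≠ l1) (hne4 : s ≠ D.neg l1)
    (h1 : pz D γ l1 = 1 ∨ pz D γ l1 = -1) (es1 : List (ℕ × ℕ))
    (hγ1 : memB γ (runC D X [w] [l1] es1) = true) (hγ2 : memB (D.neg γ) (runC D X [w] [l1] es1) = true)
    (hk2 : (wAct X w)^[k2] s = s1) (h2 : pz D γ s1 = 1 ∨ pz D γ s1 = -1) (es2 : List (ℕ × ℕ))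
    (hall : ∀ r < D.nroots, memB r (runC D X [w] (s1 :: runC D X [w] [l1] es1) es2) = true) :
    ∃ a b : ↥(D.group F), Subgroup.closure ({a, b} : Set ↥(D.group F)) = ⊤ := by
  obtain ⟨z, hz⟩ := IsCyclic.exists_generator (α := Fˣ)
  refine design1 hF hw hl hs (cG D γ z) ?_ ?_ hls hne1 hne2 hk1 hl1s hne3 hne4 ?_ es1 ?_ hk2 ?_ es2 hall
  · rw [chiT_cG, h0, zpow_zero]
  · rw [chiT_cG]
    exact ne_one_of_pz (gen_ne_one hq hz) hs0
  · rw [chiT_cG]
    exact dense_of_pz hz h1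
  · intro H hH
    exact tor_mem_of_hG hF hγ z (hH _ (mem_of_memB hγ1)).2 (hH _ (mem_of_memB hγ2)).2
  · rw [chiT_cG]
    exact dense_of_pz hz h2

/-- Squares. -/
theorem dense_sq [Fintype F] {z : Fˣ} (hz : ∀ x : Fˣ, x ∈ Subgroup.zpowers z) : Dense (z ^ (2 : ℤ)) := by
  intro S hS
  have h1 : ∀ a : F, a ^ 2 ∈ S := by
    intro a
    by_cases ha : a = 0
    · rw [ha]; simp [S.zero_mem]
    · obtain ⟨n, hn⟩ := gen_pow hz (Units.mk0 a ha)
      have h2 := hS n
      have h3 : ((z ^ (2 : ℤ)) ^ n : Fˣ) = (z ^ n) ^ 2 := by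
        rw [zpow_two, mul_pow, pow_two]
      rw [h3, hn] at h2
      simpa using h2
  rw [eq_top_iff]
  intro t _
  by_cases h2 : ringChar F = 2
  · haveI : CharP F 2 := by rw [← h2]; exact ringChar.charP F
    have h3 : Function.Surjective (frobenius F 2) :=
      Finite.injective_iff_surjective.1 (frobenius_inj F 2)
    obtain ⟨a, ha⟩ := h3 t
    have h4 := h1 a
    rw [frobenius_def] at ha
    rwa [ha] at h4
  · have hodd : Fintype.card F % 2 = 1 := FiniteField.odd_card_of_char_ne_two h2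
    obtain ⟨a, b, hab⟩ := FiniteField.exists_root_sum_quadratic (R := F) (f := Polynomial.X ^ 2 - Polynomial.C t)
      (g := Polynomial.X ^ 2) (by compute_degree!) (by compute_degree!) hodd
    simp only [Polynomial.eval_sub, Polynomial.eval_pow, Polynomial.eval_X, Polynomial.eval_C] at hab
    have h5 : t = a ^ 2 + b ^ 2 := by linear_combination -hab
    rw [h5]
    exact S.add_mem (h1 a) (h1 b)

/-- Cubes, in characteristic three. -/
theorem dense_cube [Fintype F] [CharP F 3] {z : Fˣ} (hz : ∀ x : Fˣ, x ∈ Subgroup.zpowers z) : Dense (z ^ (3 : ℤ)) := by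
  haveI : Fact (Nat.Prime 3) := ⟨Nat.prime_three⟩
  refine dense_of_gen fun u => ?_
  have h3 : Function.Surjective (frobenius F 3) :=
    Finite.injective_iff_surjective.1 (frobenius_inj F 3)
  obtain ⟨a, ha⟩ := h3 (u : F)
  rw [frobenius_def] at ha
  have ha0 : a ≠ 0 := by
    rintro rfl
    have hu := u.ne_zero
    rw [← ha] at hu
    simp at hu
  obtain ⟨n, hn⟩ := gen_pow hz (Units.mk0 a ha0)
  refine ⟨n, ?_⟩
  apply Units.ext
  have h4 : ((z ^ (3 : ℤ)) ^ n : Fˣ) = (z ^ n) ^ 3 := by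
    rw [show (3 : ℤ) = ((3 : ℕ) : ℤ) from rfl, zpow_natCast, ← pow_mul, ← pow_mul, mul_comm]
  rw [h4, hn]
  simpa using ha

/-! ### The field with two elements -/

theorem eq_one_of_card_two [Fintype F] (hq : Fintype.card F = 2) {e : F} (he : e ≠ 0) : e = 1 := by
  classical
  have h1 : Fintype.card Fˣ = 1 := by
    rw [Fintype.card_units, hq]
  have h2 : Subsingleton Fˣ := Fintype.card_le_one_iff_subsingleton.1 h1.le
  have h3 : Units.mk0 e he = 1 := Subsingleton.elim _ _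
  simpa using congrArg Units.val h3

theorem sat_of_one_two [Fintype F] {hC : Checks T X D} {H : Subgroup (GL D.Idx F)} (hq : Fintype.card F = 2) {r : ℕ}
    (h : hC.xG r (1 : F) ∈ H) : Sat hC H r := by
  intro t
  by_cases ht : t = 0
  · rw [ht, hC.xG_zero]
    exact H.one_mem
  · rwa [eq_one_of_card_two hq ht]

theorem nW_append (hF : Full T X R D) (w w' : List ℕ) : nW hF (F := F) (w ++ w') = nW hF w * nW hF w' := by
  simp [nW]

theorem nW_rootAct (hF : Full T X R D) {w : List ℕ} (hw : ∀ i ∈ w, i < D.rank) :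
    ∃ σ u, hF.RootAct (nW hF (F := F) w) σ u ∧ ∀ s : Fin D.nroots, ((σ s : Fin D.nroots) : ℕ) = wAct X w s := by
  induction w with
  | nil => exact ⟨1, 1, by simpa [nW] using hF.rootAct_one, fun s => rfl⟩
  | cons i w ih =>
    obtain ⟨σ, u, h1, h2⟩ := ih fun j hj => hw j (List.mem_cons_of_mem _ hj)
    have hi := hw i List.mem_cons_self
    have h3 : nW hF (F := F) (i :: w) = hF.nS i * nW hF w := by simp [nW]
    refine ⟨hF.wPerm hi * σ, fun s => hF.etaU hi (σ s) * u s, ?_, ?_⟩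
    · rw [h3]
      exact (hF.rootAct_nS hi).mul h1
    · intro s
      simp only [Equiv.Perm.mul_apply]
      rw [Full.wPerm_apply, h2]
      rfl

theorem nW_eq_one [Fintype F] (hF : Full T X R D) (hq : Fintype.card F = 2) {w : List ℕ} (hw : ∀ i ∈ w, i < D.rank)
    (hfix : ∀ s < D.nroots, wAct X w s = s) : nW hF (F := F) w = 1 := by
  obtain ⟨σ, u, h1, h2⟩ := nW_rootAct (F := F) hF hw
  have hm := nW_mem_monomial (F := F) hF hw
  have h3 := hF.rhoN_eq (g := ⟨nW hF w, hm⟩) h1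
  have h4 : nW hF (F := F) w ∈ D.diagonalSubgroup F := by
    apply hF.mem_diagonal_of_pos' (g := ⟨nW hF w, hm⟩)
    intro x hx
    rw [h3, h2, hfix x x.2]
    exact hx
  obtain ⟨c, hc⟩ := hF.mem_diagonal_iff.1 h4
  classical
  have h5 : c = 1 := by
    funext i
    apply Units.ext
    have := eq_one_of_card_two hq (c i).ne_zero
    simpa using this
  rw [hc, h5, tor_one]

theorem f2_extract {G : Type*} [Group G] {H : Subgroup G} {n x : G} (hn : n ^ 3 = 1) (hc : Commute n x) (hx : x * x = 1)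
    (ha : n * x ∈ H) : x ∈ H ∧ n ∈ H := by
  have h1 : (n * x) ^ 3 = x := by
    rw [hc.mul_pow, hn, one_mul, pow_succ, pow_two, hx, one_mul]
  have h2 : x ∈ H := by
    rw [← h1]
    exact H.pow_mem ha 3
  exact ⟨h2, by simpa using H.mul_mem ha (H.inv_mem h2)⟩

theorem nW_cube [Fintype F] (hF : Full T X R D) (hq : Fintype.card F = 2) {w : List ℕ} (hw : ∀ i ∈ w, i < D.rank)
    (hfix : ∀ s < D.nroots, wAct X (w ++ w ++ w) s = s) : nW hF (F := F) w ^ 3 = 1 := by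
  have h1 := nW_eq_one (F := F) hF hq (w := w ++ w ++ w) (by
    intro i hi
    simp only [List.mem_append, or_self_left, or_self] at hi
    exact hw i hi) hfix
  rw [nW_append, nW_append] at h1
  rw [pow_succ, pow_two]
  exact h1

theorem x_conj_two [Fintype F] (hF : Full T X R D) (hq : Fintype.card F = 2) {w : List ℕ} (hw : ∀ i ∈ w, i < D.rank)
    {r r' : ℕ} (hr : r < D.nroots) (h : wAct X w r = r') :
    nW hF w * hF.c.xG r (1 : F) * (nW hF w)⁻¹ = hF.c.xG r' (1 : F) := by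
  obtain ⟨-, e, he, hc⟩ := nW_conj hF (F := F) hw hr
  have he0 : e ≠ 0 := by
    rintro rfl
    simp at he
  rw [hc, eq_one_of_card_two hq he0, h, one_mul]

/-- The design for the field with two elements: `a = n₁ x_{r₁}(1)`, `b = n₂ x_{r₂}(1)`. -/
theorem design_two_one [Fintype F] (hF : Full T X R D) (hq : Fintype.card F = 2) {w₁ w₂ : List ℕ}
    (hw₁ : ∀ i ∈ w₁, i < D.rank) (hw₂ : ∀ i ∈ w₂, i < D.rank) {r₁ r₂ : ℕ} (h₁ : r₁ < D.nroots) (h₂ : r₂ < D.nroots)
    (hf₁ : wAct X w₁ r₁ = r₁) (hf₂ : wAct X w₂ r₂ = r₂)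
    (hc₁ : ∀ s < D.nroots, wAct X (w₁ ++ w₁ ++ w₁) s = s) (hc₂ : ∀ s < D.nroots, wAct X (w₂ ++ w₂ ++ w₂) s = s)
    (es : List (ℕ × ℕ)) (hall : ∀ r < D.nroots, memB r (runC D X [w₁, w₂] [r₁, r₂] es) = true) :
    ∃ a b : ↥(D.group F), Subgroup.closure ({a, b} : Set ↥(D.group F)) = ⊤ := by
  set a : GL D.Idx F := nW hF w₁ * hF.c.xG r₁ (1 : F) with ha
  set b : GL D.Idx F := nW hF w₂ * hF.c.xG r₂ (1 : F) with hb
  have ha1 : a ∈ D.group F := (D.group F).mul_mem (nW_mem_group hF hw₁) (hF.c.xG_mem_group h₁ _)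
  have hb1 : b ∈ D.group F := (D.group F).mul_mem (nW_mem_group hF hw₂) (hF.c.xG_mem_group h₂ _)
  refine gen_top hF.c ha1 hb1 ?_
  set H := Subgroup.closure ({a, b} : Set (GL D.Idx F)) with hH
  have haH : a ∈ H := mem_left
  have hbH : b ∈ H := mem_right
  have hcomm : ∀ {w r}, (∀ i ∈ w, i < D.rank) → r < D.nroots → wAct X w r = r →
      Commute (nW hF (F := F) w) (hF.c.xG r (1 : F)) := by
    intro w r hw hr hf
    have h2 := x_conj_two hF hq hw hr hf
    exact (mul_inv_eq_iff_eq_mul.1 h2)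
  have hsq : ∀ r : ℕ, hF.c.xG r (1 : F) * hF.c.xG r (1 : F) = 1 := by
    intro r
    rw [hF.c.xG_add]
    have h3 : (1 : F) + 1 = 0 := by
      haveI : CharP F 2 := by
        obtain ⟨p, hp⟩ := CharP.exists F
        obtain ⟨n, hn, hn2⟩ := FiniteField.card F p
        have : p = 2 := by
          have h5 : p ∣ 2 := by rw [← hq, hn2]; exact dvd_pow_self _ (PNat.ne_zero n)
          exact (Nat.prime_dvd_prime_iff_eq hn Nat.prime_two).1 h5
        subst this
        exact hp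
      exact CharTwo.add_self_eq_zero 1
    rw [h3, hF.c.xG_zero]
  obtain ⟨h3, h4⟩ := f2_extract (nW_cube hF hq hw₁ hc₁) (hcomm hw₁ h₁ hf₁) (hsq r₁) haH
  obtain ⟨h5, h6⟩ := f2_extract (nW_cube hF hq hw₂ hc₂) (hcomm hw₂ h₂ hf₂) (hsq r₂) hbH
  have h7 := runC_sound (H := H) hF (ws := [w₁, w₂]) (by simpa using ⟨⟨hw₁, h4⟩, hw₂, h6⟩) es (known := [r₁, r₂]) (by
    simpa using ⟨⟨h₁, sat_of_one_two hq h3⟩, h₂, sat_of_one_two hq h5⟩)
  intro r hr
  exact (h7 r (mem_of_memB (hall r hr))).2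

/-- commuting root elements -/
noncomputable def cm (D : ChevalleyDatum) (r s : ℕ) : Bool :=
  Nat.beq r s || (!Nat.beq s (D.neg r) && (D.commTerms r s).isEmpty)

theorem commute_of_cm (hF : Full T X R D) {r s : ℕ} (hr : r < D.nroots) (hs : s < D.nroots) (h : cm D r s = true) (t u : F) :
    Commute (hF.c.xG r t) (hF.c.xG s u) := by
  simp only [cm, Bool.or_eq_true, Bool.and_eq_true, Bool.not_eq_true', List.isEmpty_iff] at h
  rcases h with h | ⟨h1, h2⟩
  · have h3 := Nat.eq_of_beq_eq_true h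
    subst h3
    show hF.c.xG r t * hF.c.xG r u = hF.c.xG r u * hF.c.xG r t
    rw [hF.c.xG_add, hF.c.xG_add, add_comm]
  · by_cases h3 : s = r
    · subst h3
      show hF.c.xG s t * hF.c.xG s u = hF.c.xG s u * hF.c.xG s t
      rw [hF.c.xG_add, hF.c.xG_add, add_comm]
    · exact commute_of_nil hF hr hs h3 (fun h => by simp [h] at h1) h2 t u

theorem comm_abstract {G : Type*} [Group G] {A A' B B' K : G} (h1 : Commute A' B) (h2 : Commute A' B') (h3 : Commute A B')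
    (h4 : Commute K A') (h5 : Commute K B') (hBA : B * A = A * B * K) :
    (A * A' * (B * B'))⁻¹ * (B * B' * (A * A')) = K := by
  have e1 : B * B' * (A * A') = A * A' * (B * B') * K := by
    calc B * B' * (A * A') = B * (B' * A) * A' := by group
      _ = B * (A * B') * A' := by rw [h3.eq]
      _ = (B * A) * (B' * A') := by group
      _ = A * B * (K * (B' * A')) := by rw [hBA]; group
      _ = A * B * (B' * A' * K) := by rw [(h5.mul_right h4).eq]
      _ = A * B * (A' * B' * K) := by rw [h2.eq]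
      _ = A * (B * A') * (B' * K) := by group
      _ = A * (A' * B) * (B' * K) := by rw [h1.eq]
      _ = A * A' * (B * B') * K := by group
  rw [e1]
  group

theorem cube_conj {G : Type*} [Group G] {n p q r : G} (hp : n * p * n⁻¹ = q) (hq : n * q * n⁻¹ = r) (hr : n * r * n⁻¹ = p)
    (hpq : Commute p q) (hpr : Commute p r) (hqr : Commute q r) : Commute n (p * (q * r)) := by
  have h1 : n * (p * (q * r)) * n⁻¹ = (n * p * n⁻¹) * ((n * q * n⁻¹) * (n * r * n⁻¹)) := by group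
  rw [hp, hq, hr] at h1
  have h2 : q * (r * p) = p * (q * r) := by
    rw [← mul_assoc, (hpq.mul_right hpr).eq]
  exact mul_inv_eq_iff_eq_mul.1 (h1.trans h2)

theorem inv_three {G : Type*} [Group G] {p q r : G} (hpq : Commute p q) (hpr : Commute p r) (hqr : Commute q r)
    (hp : p * p = 1) (hq : q * q = 1) (hr : r * r = 1) : (p * (q * r)) * (p * (q * r)) = 1 := by
  have h1 : (q * r) * (q * r) = 1 := by
    rw [← pow_two, hqr.mul_pow, pow_two, pow_two, hq, hr, one_mul]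
  rw [← pow_two, (hpq.mul_right hpr).mul_pow, pow_two, pow_two, hp, h1, one_mul]

theorem two_char [Fintype F] (hq : Fintype.card F = 2) : (1 : F) + 1 = 0 := by
  haveI : CharP F 2 := by
    obtain ⟨p, hp⟩ := CharP.exists F
    obtain ⟨n, hn, hn2⟩ := FiniteField.card F p
    have : p = 2 := by
      have h5 : p ∣ 2 := by rw [← hq, hn2]; exact dvd_pow_self _ (PNat.ne_zero n)
      exact (Nat.prime_dvd_prime_iff_eq hn Nat.prime_two).1 h5
    subst this
    exact hp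
  exact CharTwo.add_self_eq_zero 1

/-- The design for the field with two elements, with products of three root elements. -/
theorem design_two_three [Fintype F] (hF : Full T X R D) (hq : Fintype.card F = 2) {w₁ w₂ : List ℕ}
    (hw₁ : ∀ i ∈ w₁, i < D.rank) (hw₂ : ∀ i ∈ w₂, i < D.rank) {a₁ a₂ a₃ b₁ b₂ b₃ k : ℕ} {c : ℤ}
    (hr : ∀ r ∈ [a₁, a₂, a₃, b₁, b₂, b₃, k], r < D.nroots)
    (hA₁ : wAct X w₁ a₁ = a₂) (hA₂ : wAct X w₁ a₂ = a₃) (hA₃ : wAct X w₁ a₃ = a₁)
    (hB₁ : wAct X w₂ b₁ = b₂) (hB₂ : wAct X w₂ b₂ = b₃) (hB₃ : wAct X w₂ b₃ = b₁)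
    (hc₁ : ∀ s < D.nroots, wAct X (w₁ ++ w₁ ++ w₁) s = s) (hc₂ : ∀ s < D.nroots, wAct X (w₂ ++ w₂ ++ w₂) s = s)
    (hcm : ∀ p ∈ [(a₁, a₂), (a₁, a₃), (a₂, a₃), (b₁, b₂), (b₁, b₃), (b₂, b₃), (a₂, b₁), (a₃, b₁), (a₂, b₂), (a₂, b₃), (a₃, b₂), (a₃, b₃),
        (a₁, b₂), (a₁, b₃), (k, a₂), (k, a₃), (k, b₂), (k, b₃)], cm D p.1 p.2 = true)
    (hne1 : b₁ ≠ a₁) (hne2 : b₁ ≠ D.neg a₁) (hct : D.commTerms a₁ b₁ = [(k, c, 1, 1)]) (hcu : c = 1 ∨ c = -1)
    (es : List (ℕ × ℕ)) (hall : ∀ r < D.nroots, memB r (runC D X [w₁, w₂] [k] es) = true) :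
    ∃ a b : ↥(D.group F), Subgroup.closure ({a, b} : Set ↥(D.group F)) = ⊤ := by
  have ra₁ := hr a₁ (by simp)
  have ra₂ := hr a₂ (by simp)
  have ra₃ := hr a₃ (by simp)
  have rb₁ := hr b₁ (by simp)
  have rb₂ := hr b₂ (by simp)
  have rb₃ := hr b₃ (by simp)
  have rk := hr k (by simp)
  set x := fun r => hF.c.xG r (1 : F) with hx
  have hcomm : ∀ {r s}, (r, s) ∈ [(a₁, a₂), (a₁, a₃), (a₂, a₃), (b₁, b₂), (b₁, b₃), (b₂, b₃), (a₂, b₁), (a₃, b₁), (a₂, b₂), (a₂, b₃), (a₃, b₂), (a₃, b₃),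
        (a₁, b₂), (a₁, b₃), (k, a₂), (k, a₃), (k, b₂), (k, b₃)] → r < D.nroots → s < D.nroots → Commute (x r) (x s) := by
    intro r s h h1 h2
    exact commute_of_cm hF h1 h2 (hcm _ h) _ _
  have hsq : ∀ r : ℕ, x r * x r = 1 := by
    intro r
    show hF.c.xG r (1 : F) * hF.c.xG r (1 : F) = 1
    rw [hF.c.xG_add, two_char hq, hF.c.xG_zero]
  set u₁ := x a₁ * (x a₂ * x a₃) with hu₁
  set u₂ := x b₁ * (x b₂ * x b₃) with hu₂
  set a : GL D.Idx F := nW hF w₁ * u₁ with ha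
  set b : GL D.Idx F := nW hF w₂ * u₂ with hb
  have ha1 : a ∈ D.group F := (D.group F).mul_mem (nW_mem_group hF hw₁) ((D.group F).mul_mem (hF.c.xG_mem_group ra₁ _)
    ((D.group F).mul_mem (hF.c.xG_mem_group ra₂ _) (hF.c.xG_mem_group ra₃ _)))
  have hb1 : b ∈ D.group F := (D.group F).mul_mem (nW_mem_group hF hw₂) ((D.group F).mul_mem (hF.c.xG_mem_group rb₁ _)
    ((D.group F).mul_mem (hF.c.xG_mem_group rb₂ _) (hF.c.xG_mem_group rb₃ _)))
  refine gen_top hF.c ha1 hb1 ?_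
  set H := Subgroup.closure ({a, b} : Set (GL D.Idx F)) with hH
  have haH : a ∈ H := mem_left
  have hbH : b ∈ H := mem_right
  have c12 := hcomm (r := a₁) (s := a₂) (by simp) ra₁ ra₂
  have c13 := hcomm (r := a₁) (s := a₃) (by simp) ra₁ ra₃
  have c23 := hcomm (r := a₂) (s := a₃) (by simp) ra₂ ra₃
  have d12 := hcomm (r := b₁) (s := b₂) (by simp) rb₁ rb₂
  have d13 := hcomm (r := b₁) (s := b₃) (by simp) rb₁ rb₃
  have d23 := hcomm (r := b₂) (s := b₃) (by simp) rb₂ rb₃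
  have e1 : Commute (nW hF w₁) u₁ := cube_conj (x_conj_two hF hq hw₁ ra₁ hA₁) (x_conj_two hF hq hw₁ ra₂ hA₂)
    (x_conj_two hF hq hw₁ ra₃ hA₃) c12 c13 c23
  have e2 : Commute (nW hF w₂) u₂ := cube_conj (x_conj_two hF hq hw₂ rb₁ hB₁) (x_conj_two hF hq hw₂ rb₂ hB₂)
    (x_conj_two hF hq hw₂ rb₃ hB₃) d12 d13 d23
  obtain ⟨h3, h4⟩ := f2_extract (nW_cube hF hq hw₁ hc₁) e1 (inv_three c12 c13 c23 (hsq _) (hsq _) (hsq _)) haH
  obtain ⟨h5, h6⟩ := f2_extract (nW_cube hF hq hw₂ hc₂) e2 (inv_three d12 d13 d23 (hsq _) (hsq _) (hsq _)) hbH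
  have hK : x b₁ * x a₁ = x a₁ * x b₁ * x k := by
    have h7 := hF.xG_comm ra₁ rb₁ hne1 hne2 (1 : F) (1 : F)
    have h8 : hF.c.wordG (D.commWord F a₁ b₁ 1 1) = x k := by
      rw [ChevalleyDatum.commWord, hct]
      simp only [List.map_cons, List.map_nil, Checks.wordG_cons, Checks.wordG_nil, mul_one]
      show hF.c.xG k _ = hF.c.xG k 1
      congr 1
      have h9 : ((c : ℤ) : F) * (-1) ^ 1 * 1 ^ 1 ≠ 0 := by
        rcases hcu with rfl | rfl <;> simp
      exact eq_one_of_card_two hq h9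
    rw [h8] at h7
    exact h7
  have h7 := comm_abstract (A := x a₁) (A' := x a₂ * x a₃) (B := x b₁) (B' := x b₂ * x b₃) (K := x k)
    ((hcomm (r := a₂) (s := b₁) (by simp) ra₂ rb₁).mul_left (hcomm (r := a₃) (s := b₁) (by simp) ra₃ rb₁))
    (((hcomm (r := a₂) (s := b₂) (by simp) ra₂ rb₂).mul_right (hcomm (r := a₂) (s := b₃) (by simp) ra₂ rb₃)).mul_left
      ((hcomm (r := a₃) (s := b₂) (by simp) ra₃ rb₂).mul_right (hcomm (r := a₃) (s := b₃) (by simp) ra₃ rb₃)))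
    ((hcomm (r := a₁) (s := b₂) (by simp) ra₁ rb₂).mul_right (hcomm (r := a₁) (s := b₃) (by simp) ra₁ rb₃))
    ((hcomm (r := k) (s := a₂) (by simp) rk ra₂).mul_right (hcomm (r := k) (s := a₃) (by simp) rk ra₃))
    ((hcomm (r := k) (s := b₂) (by simp) rk rb₂).mul_right (hcomm (r := k) (s := b₃) (by simp) rk rb₃)) hK
  have h8 : x k ∈ H := by
    rw [← h7]
    exact H.mul_mem (H.inv_mem (H.mul_mem h3 h5)) (H.mul_mem h5 h3)
  have h9 := runC_sound (H := H) hF (ws := [w₁, w₂]) (by simpa using ⟨⟨hw₁, h4⟩, hw₂, h6⟩) es (known := [k]) (by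
    simpa using ⟨rk, sat_of_one_two hq h8⟩)
  intro r hr
  exact (h9 r (mem_of_memB (hall r hr))).2

end Cfsg.Agent.Lib.Chev.TwoGen
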